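/-
A subgroup of `SL(45, 7)` that is a triple cover of the O'Nan group.
-/
import Cfsg.Agent.H15.ON3.Rel0
import Cfsg.Agent.H15.ON3.Rel1
import Cfsg.Agent.H15.ON3.Rel2
import Cfsg.Agent.H15.ON3.Rel3
import Cfsg.Agent.H15.ON3.Rel4
import Cfsg.Agent.H15.ON3.Rel5
import Cfsg.Agent.H15.ON3.Rel6
import Cfsg.Agent.H15.ON3.Rel7
import Cfsg.Agent.H16.ON7Order

set_option autoImplicit false

namespace Cfsg.Agent.H15.ON3

open Cfsg.Spor


noncomputable section

/-- The number of a generator. -/
def num : H16.ON7.Gen → ℕ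
  | .a => 0
  | .b => 1
  | .c => 2
  | .d => 3
  | .e => 4
  | .f => 5
  | .t => 6

theorem num_lt (x : H16.ON7.Gen) : num x < 7 := by cases x <;> decide

/-- The order of the product of two letters. -/
def pairOrd (i j : ℕ) : ℕ :=
  if i = j then 1 else if i = 6 ∨ j = 6 then 0 else
    if j = i + 1 then (if i = 2 then 8 else 3) else 2

/-- The relator of an ordered pair of letters. -/
def pairWord (i j : ℕ) : List ℕ := (List.replicate (pairOrd i j) [i, j]).flatten

theorem label_eq : ∀ x y : H16.ON7.Gen, num x ≤ num y →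
    coxLabel H16.ON7.edges x y = pairOrd (num x) (num y) ∧
      coxLabel H16.ON7.edges y x = pairOrd (num x) (num y) := by
  intro x y
  cases x <;> cases y <;> decide

theorem pairs_ok (i j : ℕ) (hij : i ≤ j) (hj : j < 7) : IsScal (pairWord i j) 1 := by
  have hi : i < 7 := by omega
  interval_cases i <;> interval_cases j
  exacts [p00, p01, p02, p03, p04, p05, p06, p11, p12, p13, p14, p15, p16, p22, p23, p24, p25, p26, p33, p34, p35, p36, p44, p45, p46, p55, p56, p66]

theorem extra_ok (k : ℕ) (hk : k < 7) :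
    IsScal (extraWords.getD k []) (extraVals.getD k 0) ∧ extraVals.getD k 0 < 4096 := by
  interval_cases k
  exacts [⟨x0, by decide⟩, ⟨x1, by decide⟩, ⟨x2, by decide⟩, ⟨x3, by decide⟩, ⟨x4, by decide⟩, ⟨x5, by decide⟩, ⟨x6, by decide⟩]

theorem extra_two : extraVals.getD 4 0 = 2 := by decide +kernel

theorem moved_ok : sl ((gen 0).getD 1 0) 4 = 6 := by decide +kernel

theorem gM_sq (x : H16.ON7.Gen) : gM (num x) * gM (num x) = 1 := by
  have hp := pairs_ok (num x) (num x) le_rfl (num_lt x)
  have hw : pairWord (num x) (num x) = [num x, num x] := by simp [pairWord, pairOrd]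
  rw [hw] at hp
  have h : wM _ = _ := hp
  simpa [wM] using h

/-- The determinant sign of a generator. -/
def sgn (x : H16.ON7.Gen) : ZMod 7 := (gM (num x)).det

theorem sgn_sq (x : H16.ON7.Gen) : sgn x * sgn x = 1 := by
  rw [sgn, ← Matrix.det_mul, gM_sq, Matrix.det_one]

theorem sign_pow : ∀ d : ZMod 7, d * d = 1 → d ^ 45 * d = 1 := by decide +kernel

theorem det_norm (x : H16.ON7.Gen) : (sgn x • gM (num x)).det = 1 := by
  rw [Matrix.det_smul, Fintype.card_fin]
  show sgn x ^ 45 * sgn x = 1
  exact sign_pow _ (sgn_sq x)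

theorem six_ne : ((6 : ℕ) : ZMod 7) ≠ 0 := by decide +kernel

theorem pow45_three : ∀ r : ZMod 7, r ^ 45 = 1 → r ^ 3 = 1 := by decide +kernel

theorem card_cube : Fintype.card {r : ZMod 7 // r ^ 3 = 1} = 3 := by decide +kernel

theorem gM_entry : gM (num .a) (1 : Fin 45) (4 : Fin 45) = ((6 : ℕ) : ZMod 7) := by
  rw [gM, Matrix.of_apply]
  exact congrArg Nat.cast moved_ok

attribute [local irreducible] sgn gM wM

/-- The special linear group. -/
abbrev SL45 := Matrix.SpecialLinearGroup (Fin 45) (ZMod 7)

/-- A generator in the special linear group. -/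
def slG (x : H16.ON7.Gen) : SL45 := ⟨sgn x • gM (num x), det_norm x⟩

/-- The product of a word of generators. -/
def slW (l : List H16.ON7.Gen) : SL45 := (l.map slG).prod

theorem coe_list_prod {ι n : Type*} [DecidableEq n] [Fintype n] {R : Type*} [CommRing R]
    (f : ι → Matrix.SpecialLinearGroup n R) : ∀ l : List ι,
      ((l.map f).prod : Matrix n n R) = (l.map fun x => (f x : Matrix n n R)).prod
  | [] => by simp
  | x :: l => by
    rw [List.map_cons, List.prod_cons, Matrix.SpecialLinearGroup.coe_mul, coe_list_prod f l,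
      List.map_cons, List.prod_cons]

theorem list_prod_smul {ι n : Type*} [DecidableEq n] [Fintype n] {R : Type*} [CommRing R]
    (d : ι → R) (M : ι → Matrix n n R) : ∀ l : List ι,
      (l.map fun x => d x • M x).prod = (l.map d).prod • (l.map M).prod
  | [] => by simp
  | x :: l => by
    rw [List.map_cons, List.prod_cons, list_prod_smul d M l, List.map_cons, List.prod_cons,
      List.map_cons, List.prod_cons]
    simp [smul_smul, mul_comm]

theorem slG_val (x : H16.ON7.Gen) :
    (slG x : Matrix (Fin 45) (Fin 45) (ZMod 7)) = sgn x • gM (num x) := rfl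

theorem slW_val (l : List H16.ON7.Gen) : (slW l : Matrix (Fin 45) (Fin 45) (ZMod 7)) =
    (l.map sgn).prod • wM (l.map num) := by
  unfold slW wM
  rw [coe_list_prod slG l, List.map_map]
  have e : (fun x => (slG x : Matrix (Fin 45) (Fin 45) (ZMod 7))) =
      fun x => sgn x • (gM ∘ num) x := funext slG_val
  rw [e]
  exact list_prod_smul sgn (gM ∘ num) l

theorem scalar_comm {n : Type*} [DecidableEq n] [Fintype n] {R : Type*} [CommRing R]
    {A : Matrix.SpecialLinearGroup n R} {r : R} (h : (A : Matrix n n R) = r • 1)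
    (B : Matrix.SpecialLinearGroup n R) : B * A = A * B := by
  refine Subtype.ext ?_
  rw [Matrix.SpecialLinearGroup.coe_mul, Matrix.SpecialLinearGroup.coe_mul, h]
  simp

theorem mem_center_of_scalar {A : SL45} (r : ZMod 7)
    (h : (A : Matrix (Fin 45) (Fin 45) (ZMod 7)) = r • 1) : A ∈ Subgroup.center SL45 := by
  rw [Subgroup.mem_center_iff]
  intro B
  exact scalar_comm h B

theorem slW_scalar {l : List H16.ON7.Gen} {c : ℕ}
    (h : IsScal (l.map num) c) :
    (slW l : Matrix (Fin 45) (Fin 45) (ZMod 7)) = ((l.map sgn).prod * (c : ZMod 7)) • 1 := by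
  rw [slW_val, h, smul_smul]

theorem slW_mem_center {l : List H16.ON7.Gen} {c : ℕ} (hc : c < 4096)
    (h : IsScal (l.map num) c) : slW l ∈ Subgroup.center SL45 :=
  mem_center_of_scalar _ (slW_scalar h)

/-- The image of a generator modulo the centre. -/
def pgl (x : H16.ON7.Gen) : SL45 ⧸ Subgroup.center SL45 := QuotientGroup.mk (slG x)

theorem lift_list : ∀ l : List H16.ON7.Gen,
    FreeGroup.lift pgl (l.map FreeGroup.of).prod = QuotientGroup.mk (slW l)
  | [] => by simp [slW]
  | x :: l => by
    have ih := lift_list l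
    simp only [slW, List.map_cons, List.prod_cons, map_mul, FreeGroup.lift_apply_of] at ih ⊢
    rw [ih, QuotientGroup.mk_mul]
    rfl

theorem lift_list_one {l : List H16.ON7.Gen} {c : ℕ} (hc : c < 4096)
    (h : IsScal (l.map num) c) : FreeGroup.lift pgl (l.map FreeGroup.of).prod = 1 := by
  rw [lift_list, QuotientGroup.eq_one_iff]
  exact slW_mem_center hc h

/-- The further relators as lists of generators. -/
def extraLists : List (List H16.ON7.Gen) :=
  extraWords.map fun w => w.map fun k => [H16.ON7.Gen.a, .b, .c, .d, .e, .f, .t].getD k .a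

theorem extraLists_num : extraLists.map (fun l => l.map num) = extraWords := by decide +kernel

theorem extra_eq : H16.ON7.extra = extraLists.map fun l => (l.map FreeGroup.of).prod := by
  simp [extraLists, extraWords, H16.ON7.extra, mul_assoc]

theorem pgl_rels : ∀ r ∈ coxRelators H16.ON7.edges ∪ {r | r ∈ H16.ON7.extra},
    FreeGroup.lift pgl r = 1 := by
  intro r hr
  rcases hr with ⟨x, -, y, -, rfl⟩ | hr
  · have key : ∀ (x y : H16.ON7.Gen) (n : ℕ), ((List.replicate n [x, y]).flatten.map FreeGroup.of).prod =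
        (FreeGroup.of x * FreeGroup.of y) ^ n := by
      intro x y n
      induction n with
      | zero => simp
      | succ n ih => simp [List.replicate_succ, pow_succ', ih, mul_assoc]
    have hle : ∀ x y : H16.ON7.Gen, num x ≤ num y →
        FreeGroup.lift pgl ((FreeGroup.of x * FreeGroup.of y) ^ pairOrd (num x) (num y)) = 1 := by
      intro x y hxy
      rw [← key]
      refine lift_list_one (c := 1) (by norm_num) ?_
      simpa [List.map_flatten, pairWord] using pairs_ok (num x) (num y) hxy (num_lt y)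
    rcases le_total (num x) (num y) with hxy | hxy
    · rw [(label_eq x y hxy).1]
      exact hle x y hxy
    · rw [(label_eq y x hxy).2]
      have h := hle y x hxy
      rw [map_pow, map_mul] at h ⊢
      have hc : FreeGroup.lift pgl (FreeGroup.of x) * FreeGroup.lift pgl (FreeGroup.of y) =
          FreeGroup.lift pgl (FreeGroup.of x) * (FreeGroup.lift pgl (FreeGroup.of y) *
            FreeGroup.lift pgl (FreeGroup.of x)) * (FreeGroup.lift pgl (FreeGroup.of x))⁻¹ := by
        group
      rw [hc, conj_pow, h, mul_one, mul_inv_cancel]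
  · have hr' : r ∈ extraLists.map fun l => (l.map FreeGroup.of).prod := extra_eq ▸ hr
    obtain ⟨k, hk, rfl⟩ := List.mem_iff_getElem.1 hr'
    have hk7 : k < 7 := by
      have : extraLists.length = 7 := by decide +kernel
      simpa [this] using hk
    obtain ⟨h, hlt⟩ := extra_ok k hk7
    have hl : extraWords.getD k [] = (extraLists[k]'(by simpa using hk)).map num := by
      rw [← extraLists_num, List.getD_eq_getElem _ _ (by simpa using hk), List.getElem_map]
    rw [List.getElem_map]
    exact lift_list_one hlt (hl ▸ h)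

/-- The projective representation. -/
def phi : H16.ON7.Grp →* SL45 ⧸ Subgroup.center SL45 := PresentedGroup.toGroup pgl_rels

theorem phi_of (x : H16.ON7.Gen) : phi (PresentedGroup.of x) = pgl x :=
  PresentedGroup.toGroup.of pgl_rels

theorem phi_range : phi.range = (Subgroup.closure (Set.range slG)).map (QuotientGroup.mk' _) := by
  refine le_antisymm ?_ ?_
  · rintro _ ⟨g, rfl⟩
    refine PresentedGroup.generated_by _ (((Subgroup.closure (Set.range slG)).map
      (QuotientGroup.mk' _)).comap phi) (fun x => ?_) g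
    rw [Subgroup.mem_comap, phi_of]
    exact Subgroup.mem_map_of_mem _ (Subgroup.subset_closure ⟨x, rfl⟩)
  · rw [MonoidHom.map_closure, Subgroup.closure_le]
    rintro _ ⟨_, ⟨x, rfl⟩, rfl⟩
    exact ⟨PresentedGroup.of x, phi_of x⟩

theorem pgl_a_ne_one : pgl .a ≠ 1 := by
  intro h
  rw [pgl, QuotientGroup.eq_one_iff] at h
  obtain ⟨r, -, hr⟩ := Matrix.SpecialLinearGroup.mem_center_iff.1 h
  haveI : Fact (Nat.Prime 7) := ⟨by norm_num⟩
  have hs : sgn .a ≠ 0 := fun e => by
    have h1 := sgn_sq .a
    rw [e, mul_zero] at h1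
    exact zero_ne_one h1
  have e := congrFun (congrFun hr (1 : Fin 45)) (4 : Fin 45)
  simp only [Matrix.scalar_apply, Matrix.diagonal_apply_ne _ (show (1 : Fin 45) ≠ 4 by decide),
    slG, Matrix.smul_apply, smul_eq_mul] at e
  have h0 : gM (num .a) (1 : Fin 45) (4 : Fin 45) = 0 := (mul_eq_zero.1 e.symm).resolve_left hs
  rw [gM_entry] at h0
  exact six_ne h0

theorem simpleGrp : IsSimpleGroup H16.ON7.Grp := H16.ON7Order.isSimple

theorem phi_injective : Function.Injective phi := by
  have := simpleGrp
  rw [← MonoidHom.ker_eq_bot_iff]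
  refine ((MonoidHom.normal_ker phi).eq_bot_or_eq_top).resolve_right fun h => ?_
  exact absurd h (fun h => pgl_a_ne_one (by
    rw [← PresentedGroup.toGroup.of pgl_rels (x := H16.ON7.Gen.a)]
    exact MonoidHom.mem_ker.1 (h ▸ Subgroup.mem_top _)))

theorem center_grp : Subgroup.center H16.ON7.Grp = ⊥ := by
  have := simpleGrp
  refine (Subgroup.Normal.eq_bot_or_eq_top inferInstance).resolve_right fun h => ?_
  haveI : IsMulCommutative H16.ON7.Grp := ⟨⟨fun a b =>
    (Subgroup.mem_center_iff.1 (h ▸ Subgroup.mem_top a) b).symm⟩⟩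
  have hp := (Group.is_simple_iff_prime_card (α := H16.ON7.Grp)).1 simpleGrp
  rw [H16.ON7Order.card_and_faithful.1] at hp
  norm_num at hp

/-- The covering group. -/
def cover : Subgroup SL45 := Subgroup.closure (Set.range slG)

/-- The covering map. -/
def psi : cover →* SL45 ⧸ Subgroup.center SL45 :=
  (QuotientGroup.mk' (Subgroup.center SL45)).comp cover.subtype

theorem psi_range : psi.range = phi.range := by
  rw [psi, MonoidHom.range_comp, Subgroup.range_subtype, phi_range]
  rfl

theorem psi_ker : psi.ker = Subgroup.center cover := by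
  ext h
  constructor
  · intro hh
    have hz : (h : SL45) ∈ Subgroup.center SL45 := (QuotientGroup.eq_one_iff _).1 hh
    rw [Subgroup.mem_center_iff] at hz ⊢
    exact fun g => Subtype.ext (hz g)
  · intro hh
    obtain ⟨g, hg⟩ : psi h ∈ phi.range := psi_range ▸ ⟨h, rfl⟩
    have hgc : g ∈ Subgroup.center H16.ON7.Grp := by
      rw [Subgroup.mem_center_iff]
      intro g'
      obtain ⟨h', hh'⟩ : phi g' ∈ psi.range := psi_range.symm ▸ ⟨g', rfl⟩
      apply phi_injective
      rw [map_mul, map_mul, hg, ← hh', ← map_mul, ← map_mul,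
        Subgroup.mem_center_iff.1 hh h']
    rw [center_grp, Subgroup.mem_bot] at hgc
    rw [MonoidHom.mem_ker, ← hg, hgc, map_one]

/-- The word of the generators with scalar value two. -/
theorem exists_nontrivial : ∃ z : cover, z ∈ Subgroup.center cover ∧ z ≠ 1 := by
  have h := (extra_ok 4 (by norm_num)).1
  rw [extra_two] at h
  obtain ⟨l, hl⟩ : ∃ l : List H16.ON7.Gen, l.map num = extraWords.getD 4 [] :=
    ⟨extraLists.getD 4 [], by decide +kernel⟩
  have hmem : slW l ∈ cover := Subgroup.list_prod_mem _ fun x hx => by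
    obtain ⟨g, -, rfl⟩ := List.mem_map.1 hx
    exact Subgroup.subset_closure ⟨g, rfl⟩
  have hsc := slW_scalar (l := l) (c := 2) (hl ▸ h)
  refine ⟨⟨slW l, hmem⟩, ?_, fun e => ?_⟩
  · rw [← psi_ker]
    exact (QuotientGroup.eq_one_iff _).2 (mem_center_of_scalar _ hsc)
  · have e1 : slW l = 1 := congrArg Subtype.val e
    have e2 := congrFun (congrFun hsc 0) 0
    rw [e1] at e2
    simp only [Matrix.SpecialLinearGroup.coe_one, Matrix.one_apply_eq, Matrix.smul_apply,
      smul_eq_mul, mul_one] at e2
    have hs : ∀ m : List H16.ON7.Gen, (m.map sgn).prod * (m.map sgn).prod = 1 := by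
      intro m
      induction m with
      | nil => simp
      | cons x m ih =>
        rw [List.map_cons, List.prod_cons, mul_mul_mul_comm, sgn_sq, ih, one_mul]
    have hall : ∀ e : ZMod 7, e * e = 1 → (1 : ZMod 7) ≠ e * 2 := by decide +kernel
    exact hall _ (hs l) (by exact_mod_cast e2)

theorem card_center : Nat.card (Subgroup.center cover) = 3 := by
  haveI : Fact (Nat.Prime 7) := ⟨by norm_num⟩
  have hscal : ∀ z : Subgroup.center cover, ∃ r : ZMod 7, r ^ 45 = 1 ∧
      Matrix.scalar (Fin 45) r = ((z : cover) : SL45).1 := by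
    intro z
    have hz : ((z : cover) : SL45) ∈ Subgroup.center SL45 :=
      (QuotientGroup.eq_one_iff _).1 (psi_ker.ge z.2)
    obtain ⟨r, hr, e⟩ := Matrix.SpecialLinearGroup.mem_center_iff.1 hz
    exact ⟨r, by simpa using hr, e⟩
  choose r hr1 hr2 using hscal
  let f : Subgroup.center cover → {r : ZMod 7 // r ^ 3 = 1} := fun z => ⟨r z, by
    exact pow45_three _ (hr1 z)⟩
  have hf : Function.Injective f := by
    intro a b e
    have e' : r a = r b := congrArg Subtype.val e
    refine Subtype.ext (Subtype.ext (Subtype.ext ?_))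
    rw [← hr2 a, ← hr2 b, e']
  have hle : Nat.card (Subgroup.center cover) ≤ 3 := by
    refine (Nat.card_le_card_of_injective f hf).trans (le_of_eq ?_)
    rw [Nat.card_eq_fintype_card]
    exact card_cube
  obtain ⟨z, hz, hz1⟩ := exists_nontrivial
  have h3 : (⟨z, hz⟩ : Subgroup.center cover) ^ 3 = 1 := by
    refine Subtype.ext (Subtype.ext (Subtype.ext ?_))
    simp only [SubmonoidClass.coe_pow, Matrix.SpecialLinearGroup.coe_pow, OneMemClass.coe_one,
      Matrix.SpecialLinearGroup.coe_one]
    rw [← hr2 ⟨z, hz⟩, ← map_pow, show r ⟨z, hz⟩ ^ 3 = 1 from (f ⟨z, hz⟩).2, map_one]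
  have ho : orderOf (⟨z, hz⟩ : Subgroup.center cover) = 3 := by
    haveI : Fact (Nat.Prime 3) := ⟨by norm_num⟩
    exact orderOf_eq_prime h3 fun e => hz1 (congrArg Subtype.val e)
  have hd : 3 ∣ Nat.card (Subgroup.center cover) := ho ▸ orderOf_dvd_natCard _
  have hpos : 0 < Nat.card (Subgroup.center cover) := Nat.card_pos
  exact le_antisymm hle (Nat.le_of_dvd hpos hd)

theorem isON_quotient : Cfsg.IsON (cover ⧸ Subgroup.center cover) := by
  have e0 : (cover ⧸ psi.ker) ≃* H16.ON7.Grp :=
    ((QuotientGroup.quotientKerEquivRange psi).trans (MulEquiv.subgroupCongr psi_range)).trans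
      (MonoidHom.ofInjective phi_injective).symm
  have e : (cover ⧸ Subgroup.center cover) ≃* H16.ON7.Grp :=
    (QuotientGroup.quotientMulEquivOfEq psi_ker.symm).trans e0
  have := simpleGrp
  exact ⟨e.isSimpleGroup, by rw [Nat.card_congr e.toEquiv, H16.ON7Order.card_and_faithful.1]⟩

theorem triple_cover : ∃ H : Subgroup (Matrix.SpecialLinearGroup (Fin 45) (ZMod 7)),
    Nat.card (Subgroup.center H) = 3 ∧ Cfsg.IsON (H ⧸ Subgroup.center H) :=
  ⟨cover, card_center, isON_quotient⟩

end

end Cfsg.Agent.H15.ON3
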