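/-
Square matrices of order 45 over the field with seven elements as packed rows of 12-bit fields.
-/
import Mathlib
import Cfsg.Agent.H16.CertArr
import Cfsg.Agent.H15.ON3.Data

set_option autoImplicit false

namespace Cfsg.Agent.H15.ON3

open H16 (forceNat forceNat_eq)

/-- Field `j` of a packed row. -/
def sl (x j : ℕ) : ℕ := x / 4096 ^ j % 4096

theorem sl_zero (x : ℕ) : sl x 0 = x % 4096 := by simp [sl]

theorem sl_succ (x j : ℕ) : sl x (j + 1) = sl (x / 4096) j := by
  simp [sl, pow_succ', Nat.div_div_eq_div_mul]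

theorem sl_of_zero (j : ℕ) : sl 0 j = 0 := by simp [sl]

theorem sl_add : ∀ (j u v : ℕ), (∀ i, sl u i + sl v i < 4096) → sl (u + v) j = sl u j + sl v j
  | 0, u, v, h => by
    have := h 0
    simp only [sl_zero] at this ⊢
    omega
  | j + 1, u, v, h => by
    have h0 := h 0
    simp only [sl_zero] at h0
    have e : (u + v) / 4096 = u / 4096 + v / 4096 := by omega
    rw [sl_succ, sl_succ, sl_succ, e]
    exact sl_add j _ _ (fun i => by simpa only [sl_succ] using h (i + 1))

theorem sl_mul : ∀ (j c v : ℕ), (∀ i, c * sl v i < 4096) → sl (c * v) j = c * sl v j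
  | 0, c, v, h => by
    have := h 0
    simp only [sl_zero] at this ⊢
    rw [Nat.mul_mod, ← Nat.mod_eq_of_lt this]
    simp [Nat.mul_mod]
  | j + 1, c, v, h => by
    have h0 := h 0
    simp only [sl_zero] at h0
    have e : c * v / 4096 = c * (v / 4096) := by
      conv_lhs => rw [← Nat.div_add_mod v 4096, Nat.mul_add, Nat.mul_left_comm]
      rw [Nat.mul_add_div (by norm_num), Nat.div_eq_of_lt h0, Nat.add_zero]
    rw [sl_succ, sl_succ, e]
    exact sl_mul j _ _ (fun i => by simpa only [sl_succ] using h (i + 1))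

/-- Every field is at most six. -/
def Small (x : ℕ) : Prop := ∀ j, sl x j ≤ 6

theorem small_zero : Small 0 := fun j => by simp [sl_of_zero]

theorem sl_pow (i j : ℕ) : sl (4096 ^ i) j = if i = j then 1 else 0 := by
  induction i generalizing j with
  | zero => cases j with
    | zero => rfl
    | succ j => simp [sl_succ, sl_of_zero]
  | succ i ih => cases j with
    | zero => simp [sl_zero, pow_succ]
    | succ j =>
      rw [sl_succ, pow_succ, Nat.mul_div_cancel _ (by norm_num : 0 < 4096), ih]
      simp

theorem small_pow (i : ℕ) : Small (4096 ^ i) := fun j => by rw [sl_pow]; split <;> omega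

/-- Combination of packed rows, the coefficients being the fields of `x`. -/
noncomputable def dot (ps : List ℕ) : ℕ → ℕ :=
  List.rec (motive := fun _ => ℕ → ℕ) (fun _ => 0)
    (fun p _ ih x => forceNat x fun x =>
      Nat.add (Nat.mul (Nat.mod x 4096) p) (ih (Nat.div x 4096))) ps

theorem dot_cons (p : ℕ) (ps : List ℕ) (x : ℕ) :
    dot (p :: ps) x = x % 4096 * p + dot ps (x / 4096) :=
  forceNat_eq x (fun y => Nat.add (Nat.mul (Nat.mod y 4096) p) (dot ps (Nat.div y 4096)))

theorem dot_spec : ∀ (ps : List ℕ) (x : ℕ), ps.length ≤ 100 → Small x → (∀ p ∈ ps, Small p) →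
    ∀ j, sl (dot ps x) j ≤ 36 * ps.length ∧
      sl (dot ps x) j = ∑ k ∈ Finset.range ps.length, sl x k * sl (ps.getD k 0) j
  | [], x, _, _, _, j => by simp [dot, sl_of_zero]
  | p :: ps, x, hl, hx, hp, j => by
    simp only [List.length_cons] at hl
    have hps : ∀ q ∈ ps, Small q := fun q hq => hp q (List.mem_cons_of_mem _ hq)
    have hx' : Small (x / 4096) := fun i => by rw [← sl_succ]; exact hx _
    have ih := dot_spec ps (x / 4096) (by omega) hx' hps
    have hc : x % 4096 ≤ 6 := by simpa [sl_zero] using hx 0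
    have hb : ∀ i, x % 4096 * sl p i ≤ 36 := fun i =>
      Nat.mul_le_mul hc (hp p (List.mem_cons_self ..) i)
    have hm : ∀ i, sl (x % 4096 * p) i = x % 4096 * sl p i := fun i =>
      sl_mul i _ _ (fun i => lt_of_le_of_lt (hb i) (by norm_num))
    rw [dot_cons, sl_add j _ _ (fun i => by have := (ih i).1; have := hb i; rw [hm]; omega), hm]
    refine ⟨by have := (ih j).1; have := hb j; simp only [List.length_cons]; omega, ?_⟩
    rw [(ih j).2, List.length_cons, Finset.sum_range_succ']
    simp [sl_succ, sl_zero, add_comm]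

/-- Reduce the first `k` fields modulo seven and drop the others. -/
noncomputable def red (k : ℕ) : ℕ → ℕ :=
  Nat.rec (motive := fun _ => ℕ → ℕ) (fun _ => 0)
    (fun _ ih x => forceNat x fun x =>
      Nat.add (Nat.mod (Nat.mod x 4096) 7) (Nat.mul 4096 (ih (Nat.div x 4096)))) k

theorem red_succ (k x : ℕ) : red (k + 1) x = x % 4096 % 7 + 4096 * red k (x / 4096) :=
  forceNat_eq x (fun x => Nat.add (Nat.mod (Nat.mod x 4096) 7) (Nat.mul 4096 (red k (Nat.div x 4096))))

theorem red_spec : ∀ (k x j : ℕ), sl (red k x) j = if j < k then sl x j % 7 else 0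
  | 0, x, j => by simp [red, sl_of_zero]
  | k + 1, x, 0 => by
    rw [red_succ, sl_zero, sl_zero, if_pos (by omega)]
    omega
  | k + 1, x, j + 1 => by
    rw [red_succ, sl_succ, sl_succ,
      show (x % 4096 % 7 + 4096 * red k (x / 4096)) / 4096 = red k (x / 4096) by omega, red_spec k]
    simp

theorem small_red (k x : ℕ) : Small (red k x) := fun j => by
  rw [red_spec]; split <;> omega

/-- The stored matrices by number. -/
def gen (g : ℕ) : List ℕ :=
  match g with
  | 0 => mat0
  | 1 => mat1
  | 2 => mat2
  | 3 => mat3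
  | 4 => mat4
  | 5 => mat5
  | _ => mat6

/-- A packed row is small and has 45 fields at most. -/
noncomputable def smallB (k : ℕ) : ℕ → Bool :=
  Nat.rec (motive := fun _ => ℕ → Bool) (fun x => Nat.beq x 0)
    (fun _ ih x => Nat.ble (Nat.mod x 4096) 6 && ih (Nat.div x 4096)) k

theorem smallB_spec : ∀ (j k x : ℕ), smallB k x = true → sl x j ≤ 6
  | j, 0, x, h => by simp [Nat.eq_of_beq_eq_true h, sl_of_zero]
  | 0, k + 1, x, h => by
    have h' : (Nat.ble (x % 4096) 6 && smallB k (x / 4096)) = true := h
    simp only [Bool.and_eq_true, Nat.ble_eq] at h'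
    rw [sl_zero]; exact h'.1
  | j + 1, k + 1, x, h => by
    have h' : (Nat.ble (x % 4096) 6 && smallB k (x / 4096)) = true := h
    simp only [Bool.and_eq_true] at h'
    rw [sl_succ]
    exact smallB_spec j k _ h'.2

theorem gens_ok : (List.range 7).all (fun g =>
    Nat.beq (gen g).length 45 && (gen g).all fun p => smallB 45 p) = true := by decide +kernel

theorem gen_spec (g : ℕ) : (gen g).length = 45 ∧ ∀ p ∈ gen g, Small p := by
  have key : ∀ g, g < 7 → (gen g).length = 45 ∧ ∀ p ∈ gen g, Small p := by
    intro g hg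
    have h := List.all_eq_true.1 gens_ok g (List.mem_range.2 hg)
    simp only [Bool.and_eq_true, List.all_eq_true] at h
    exact ⟨Nat.eq_of_beq_eq_true h.1, fun p hp j => smallB_spec j 45 p (h.2 p hp)⟩
  rcases Nat.lt_or_ge g 7 with hg | hg
  · exact key g hg
  · obtain ⟨m, rfl⟩ : ∃ m, g = m + 7 := ⟨g - 7, by omega⟩
    exact key 6 (by norm_num)

/-- The matrix of a stored generator. -/
def gM (g : ℕ) : Matrix (Fin 45) (Fin 45) (ZMod 7) :=
  Matrix.of fun i j => (sl ((gen g).getD i 0) j : ZMod 7)

/-- The product of the matrices of a word. -/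
def wM (w : List ℕ) : Matrix (Fin 45) (Fin 45) (ZMod 7) := (w.map gM).prod

/-- The vector of a packed row. -/
def vecOf (x : ℕ) : Fin 45 → ZMod 7 := fun j => (sl x j : ZMod 7)

/-- One step. -/
noncomputable def step (g x : ℕ) : ℕ := red 45 (dot (gen g) x)

/-- The image of a packed row under a word. -/
noncomputable def runW (w : List ℕ) : ℕ → ℕ :=
  List.rec (motive := fun _ => ℕ → ℕ) (fun x => x)
    (fun g _ ih x => forceNat (step g x) fun y => ih y) w

theorem runW_cons (g : ℕ) (w : List ℕ) (x : ℕ) : runW (g :: w) x = runW w (step g x) :=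
  forceNat_eq (step g x) fun y => runW w y

theorem vecOf_step (g x : ℕ) (hx : Small x) :
    vecOf (step g x) = Matrix.vecMul (vecOf x) (gM g) := by
  obtain ⟨hl, hs⟩ := gen_spec g
  funext j
  simp only [vecOf, step, red_spec, j.2, if_true, ZMod.natCast_mod]
  rw [(dot_spec (gen g) x (by rw [hl]; norm_num) hx hs j).2, hl,
    ← Fin.sum_univ_eq_sum_range (fun k => sl x k * sl ((gen g).getD k 0) j) 45]
  simp only [Matrix.vecMul, dotProduct, gM, Matrix.of_apply, vecOf]
  push_cast
  rfl

theorem vecOf_runW : ∀ (w : List ℕ) (x : ℕ), Small x →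
    vecOf (runW w x) = Matrix.vecMul (vecOf x) (wM w)
  | [], x, _ => by simp [runW, wM]
  | g :: w, x, hx => by
    rw [runW_cons, vecOf_runW w (step g x) (small_red _ _), vecOf_step g x hx, wM, wM,
      List.map_cons, List.prod_cons, Matrix.vecMul_vecMul]

/-- The second list lists the images of the first. -/
noncomputable def eqMap (w : List ℕ) : List ℕ → List ℕ → Bool :=
  List.rec (motive := fun _ => List ℕ → Bool) (fun B => B.isEmpty)
    (fun a _ ih B => List.rec (motive := fun _ => Bool) false
      (fun b bs _ => Bool.rec false (ih bs) (Nat.beq (runW w a) b)) B)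

theorem eqMap_spec (w : List ℕ) : ∀ A B : List ℕ, eqMap w A B = true → B = A.map (runW w)
  | [], [], _ => rfl
  | [], _ :: _, h => by simp [eqMap] at h
  | _ :: _, [], h => by simp [eqMap] at h
  | a :: A, b :: B, h => by
    have h' : Bool.rec false (eqMap w A B) (Nat.beq (runW w a) b) = true := h
    cases hb : Nat.beq (runW w a) b with
    | false => rw [hb] at h'; exact absurd h' (by simp)
    | true =>
      rw [hb] at h'
      rw [List.map_cons, ← eqMap_spec w A B h', Nat.eq_of_beq_eq_true hb]

theorem small_runW : ∀ (w : List ℕ) (x : ℕ), Small x → Small (runW w x)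
  | [], _, hx => hx
  | g :: w, x, _ => by rw [runW_cons]; exact small_runW w _ (small_red _ _)

/-- The stored rows are those of a matrix. -/
structure Rows (M : Matrix (Fin 45) (Fin 45) (ZMod 7)) (A : List ℕ) : Prop where
  len : A.length = 45
  small : ∀ p ∈ A, Small p
  eval : ∀ i : Fin 45, vecOf (A.getD i 0) = M.row i

theorem Rows.next {u seg : List ℕ} {A B : List ℕ} (h : Rows (wM u) A)
    (e : eqMap seg A B = true) : Rows (wM (u ++ seg)) B := by
  obtain rfl := eqMap_spec seg A B e
  refine ⟨by rw [List.length_map, h.len], fun p hp => ?_, fun i => ?_⟩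
  · obtain ⟨q, hq, rfl⟩ := List.mem_map.1 hp
    exact small_runW seg q (h.small q hq)
  · have hi : (i : ℕ) < A.length := by rw [h.len]; exact i.2
    have hA := h.eval i
    rw [List.getD_eq_getElem _ _ hi] at hA
    rw [List.getD_eq_getElem _ _ (by simpa using hi), List.getElem_map,
      vecOf_runW seg _ (h.small _ (List.getElem_mem hi)), hA]
    funext j
    simp only [wM, List.map_append, List.prod_append, Matrix.row_apply, Matrix.mul_apply,
      Matrix.vecMul, dotProduct]

/-- The packed scalar matrices. -/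
def scal (c : ℕ) : List ℕ := (List.range 45).map fun i => c * 4096 ^ i

theorem vecOf_scal {c : ℕ} (hc : c < 4096) (i : Fin 45) :
    vecOf ((scal c).getD i 0) = ((c : ZMod 7) • (1 : Matrix (Fin 45) (Fin 45) (ZMod 7))).row i := by
  funext j
  rw [List.getD_eq_getElem _ _ (by simp [scal])]
  simp only [scal, List.getElem_map, List.getElem_range, vecOf, Matrix.row_apply]
  rw [sl_mul _ _ _ (fun k => by rw [sl_pow]; split <;> omega), sl_pow]
  rcases eq_or_ne i j with rfl | hne
  · simp
  · simp [hne, Fin.val_inj]

theorem rows_one : Rows (wM []) (scal 1) where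
  len := by simp [scal]
  small p hp := by
    obtain ⟨i, -, rfl⟩ := List.mem_map.1 hp
    rw [one_mul]; exact small_pow i
  eval i := by rw [vecOf_scal (by norm_num)]; simp [wM]

/-- The word evaluates to a scalar. -/
def IsScal (w : List ℕ) (c : ℕ) : Prop :=
  wM w = (c : ZMod 7) • (1 : Matrix (Fin 45) (Fin 45) (ZMod 7))

theorem isScal_nil : IsScal [] 1 := by simp [IsScal, wM]

theorem Rows.isScal {w : List ℕ} {c : ℕ} (hc : c < 4096) (h : Rows (wM w) (scal c)) : IsScal w c := by
  ext i j
  have e := congrFun ((h.eval i).symm.trans (vecOf_scal hc i)) j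
  simpa using e

end Cfsg.Agent.H15.ON3
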